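import Cfsg.Agent.Lib.BrauerPairs.Correspondence
import Cfsg.Agent.Lib.Block.Normal
import Cfsg.Agent.Lib.Block.SecondMain

/-!
# Blocks of a group with a normal p-subgroup
-/

set_option autoImplicit false
set_option linter.unusedSectionVars false
set_option linter.style.haveILetI false

namespace Cfsg.Agent.Lib.BrauerPairs

open Cfsg Cfsg.Agent.Lib.Block
open scoped ComplexConjugate

universe u

variable {p : ℕ} {M : Ideal AlgInt} [M.IsPrime] {G : Type u} [Group G] [Finite G] {P : Subgroup G}

theorem pbar_mapBlock_normEquiv (f : CBlock P) {g : G} (hg : g ∈ Subgroup.normalizer (P : Set G)) :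
    pbar M P (mapBlock (normEquiv (mem_normalizer_centralizer hg)) f) = cj g (pbar M P f) := by
  have hC := mem_normalizer_centralizer hg
  refine alg_ext fun y => ?_
  rw [coeff_cj]
  by_cases hy : y ∈ Subgroup.centralizer (P : Set G)
  · rw [pbar, pbar, coeff_emb_of_mem _ _ hy,
      coeff_emb_of_mem _ _ ((Subgroup.mem_normalizer_iff''.1 hC y).1 hy),
      ← coeff_bar_mapBlock (normEquiv hC) f ⟨g⁻¹ * y * g, _⟩]
    congr 1
    ext
    rw [coe_normEquiv]
    group
  · rw [pbar, pbar, coeff_emb_of_not_mem _ _ hy,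
      coeff_emb_of_not_mem _ _ (fun h => hy ((Subgroup.mem_normalizer_iff''.1 hC y).2 h))]

variable [hn : P.Normal]

theorem mem_normalizer_of_normal (g : G) : g ∈ Subgroup.normalizer (P : Set G) := by
  rw [Subgroup.normalizer_eq_top]
  trivial

/-- The conjugate of a block of `C_G(P)`. -/
noncomputable abbrev cjBlock (g : G) (f : CBlock P) : CBlock P :=
  mapBlock (normEquiv (mem_normalizer_centralizer (mem_normalizer_of_normal (P := P) g))) f

theorem mapIrr_eq_conjIrr (g : G) (θ : IrrCharacter (Subgroup.centralizer (P : Set G))) :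
    mapIrr (normEquiv (mem_normalizer_centralizer (mem_normalizer_of_normal (P := P) g⁻¹))) θ =
      conjIrr (Subgroup.centralizer (P : Set G)) g θ := by
  refine Subtype.ext (funext fun c => ?_)
  show (θ : Subgroup.centralizer (P : Set G) → ℂ) _ = (θ : Subgroup.centralizer (P : Set G) → ℂ) _
  apply congrArg
  refine Subtype.ext ?_
  show g⁻¹⁻¹ * (c : G) * g⁻¹ = g * c * g⁻¹
  rw [inv_inv]

theorem mem_gClosure_iff {f : CBlock P} {ψ : IrrCharacter (Subgroup.centralizer (P : Set G))} :
    ψ ∈ gClosure (Subgroup.centralizer (P : Set G)) f ↔ ∃ g : G, ψ ∈ cjBlock g f := by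
  constructor
  · rintro ⟨g, θ, hθ, he⟩
    exact ⟨g⁻¹, θ, hθ, (mapIrr_eq_conjIrr g θ).trans (Subtype.ext he)⟩
  · rintro ⟨g, θ, hθ, rfl⟩
    refine ⟨g⁻¹, θ, hθ, ?_⟩
    have := congrArg Subtype.val (mapIrr_eq_conjIrr g⁻¹ θ)
    simp only [inv_inv] at this
    exact this.symm

/-- The idempotent of a block is the sum of the conjugates of the idempotent of a pair at `P`. -/
theorem eIdem_eq_gClosure (hM : IsPModular p M) {B : Set (IrrCharacter G)} {e : CBlock P}
    (hBe : IsBrauerPairOf p M B P e) :
    eIdem B = fromSub (Subgroup.centralizer (P : Set G))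
      (eIdem (gClosure (Subgroup.centralizer (P : Set G)) e)) := by
  obtain ⟨hP, he, hB, ho⟩ := (isBrauerPairOf_iff hM).1 hBe
  set C := Subgroup.centralizer (P : Set G) with hC
  set S := gClosure C e with hS
  set z := fromSub C (eIdem S) with hz
  have hzc : IsClassCoeff z := isClassCoeff_fromSub_gClosure C e
  have hzR : IntR M z := intR_fromSub_gClosure C he
  haveI := Fintype.ofFinite G
  haveI := Fintype.ofFinite C
  have hzi : IsIdempotentElem z := by
    rw [IsIdempotentElem, hz, ← fromSub_mul, (isIdempotentElem_eIdem S).eq]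
  refine eq_of_idem_toF (isClassCoeff_eIdem B) (intR_eIdem hB) (isIdempotentElem_eIdem B) hzc hzR
    hzi ?_
  show bar M B = toF M z
  have hSR : IntR M (eIdem S) := fun c => by
    have := hzR (c : G)
    rwa [hz, coeff_fromSub_of_mem C _ c.2] at this
  have hzemb : toF M z = emb C (toF M (eIdem S)) := by
    refine alg_ext fun x => ?_
    rw [coeff_toF, hz]
    by_cases hx : x ∈ C
    · rw [coeff_fromSub_of_mem C _ hx, coeff_emb_of_mem C _ hx, coeff_toF]
    · rw [coeff_fromSub_of_not_mem C _ hx, coeff_emb_of_not_mem C _ hx, redC_zero]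
  rw [hzemb]
  have hbar : br P (bar M B) = bar M B :=
    br_eq_self_of_normal hM hP (isClassCoeff_bar B) (isIdempotentElem_bar hB)
  rw [← hbar, br_eq_emb]
  congr 1
  set W := toSub C (bar M B) with hW
  have hWc : IsClassCoeff W := (good_bar hB P).isClassCoeff
  have hWi : IsIdempotentElem W := (good_bar hB P).idem_toSub hM hP
  have hYc : IsClassCoeff (toF M (eIdem S)) := isClassCoeff_toF (isClassCoeff_eIdem S)
  have hYi : IsIdempotentElem (toF M (eIdem S)) := by
    rw [IsIdempotentElem, ← toF_mul hSR hSR, (isIdempotentElem_eIdem S).eq]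
  -- `Y W = Y`
  have h1 : toF M (eIdem S) * W = toF M (eIdem S) := by
    refine eq_of_idem_lam (hYc.mul hWc) (hYi.mul_of_commute (hYc.commute W) hWi) hYc hYi
      fun ψ => ?_
    rw [lam_mul ψ hYc hWc, lam_toF ψ (isClassCoeff_eIdem S) hSR, omega_eIdem]
    split_ifs with hψ
    · obtain ⟨g, hg⟩ := mem_gClosure_iff.1 hψ
      have hg' : IsPBlock M (cjBlock g e) := isPBlock_mapBlock _ he
      have hocc : Occ P (cjBlock g e) (bar M B) :=
        occ_cj_of_mem_normalizer (mem_normalizer_of_normal g)
          (pbar_mapBlock_normEquiv e (mem_normalizer_of_normal g)).symm (isClassCoeff_iff_cj.1 (isClassCoeff_bar B) g) ho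
      rw [hW, (occ_iff_lam hM hP hg' hg (good_bar hB P)).1 hocc, mul_one]
    · rw [redC_zero, zero_mul]
  -- `W ≤ Y`
  have hzG : IsClassCoeff (toF M z) := isClassCoeff_toF hzc
  have hzGi : IsIdempotentElem (toF M z) := by
    rw [IsIdempotentElem, ← toF_mul hzR hzR, hzi.eq]
  have hprod : toF M z * bar M B = toF M z := by
    rw [hzemb, ← hbar, br_eq_emb, ← map_mul, ← hW, h1]
  have hne : toF M z ≠ 0 := by
    obtain ⟨θ, hθ⟩ := isPBlock_nonempty he
    intro h0
    rw [hzemb] at h0
    have h2 := congrArg (lam M θ) (emb_injective (M := M) C (h0.trans (map_zero _).symm))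
    rw [lam_toF θ (isClassCoeff_eIdem S) hSR, omega_eIdem,
      if_pos (subset_gClosure C e hθ), redC_one, lam_zero] at h2
    exact one_ne_zero h2
  rcases bar_mul_idem hB hzG hzGi with h2 | h2
  · rw [(hzG.commute (bar M B)).eq, h2] at hprod
    exact absurd hprod.symm hne
  · rw [(hzG.commute (bar M B)).eq, h2, hzemb, ← hbar, br_eq_emb] at hprod
    exact emb_injective C hprod

theorem blockCoeff_eq_zero_of_normal (hM : IsPModular p M) (hP : IsPGroup p P)
    {B : Set (IrrCharacter G)} (hB : IsPBlock M B) {g : G}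
    (hg : g ∉ Subgroup.centralizer (P : Set G)) : blockCoeff B g = 0 := by
  obtain ⟨e, he⟩ := (exists_pairOf_iff hM hB hP).2 (by
    rw [br_eq_self_of_normal hM hP (isClassCoeff_bar B) (isIdempotentElem_bar hB)]
    exact bar_ne_zero hB)
  rw [← coeff_eIdem, eIdem_eq_gClosure hM he, coeff_fromSub_of_not_mem _ _ hg]

theorem blockCoeff_eq_sum_conj (hM : IsPModular p M) {B : Set (IrrCharacter G)} {e : CBlock P}
    (hBe : IsBrauerPairOf p M B P e) [Fintype G] {T : Subgroup G}
    (hT : ∀ x : G, x ∈ T ↔ cj x (pbar M P e) = pbar M P e) (g : G) :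
    blockCoeff B g = (Nat.card T : ℂ)⁻¹ *
      ∑ x : G, subgroupBlockCoeff (Subgroup.centralizer (P : Set G)) e (x⁻¹ * g * x) := by
  classical
  obtain ⟨hP, he, hB, -⟩ := (isBrauerPairOf_iff hM).1 hBe
  rw [← coeff_eIdem, eIdem_eq_gClosure hM hBe]
  by_cases hg : g ∈ Subgroup.centralizer (P : Set G)
  swap
  · rw [coeff_fromSub_of_not_mem _ _ hg, Finset.sum_eq_zero, mul_zero]
    intro x _
    rw [subgroupBlockCoeff, dif_neg]
    exact fun h => hg ((Subgroup.mem_normalizer_iff''.1
      (mem_normalizer_centralizer (mem_normalizer_of_normal x)) g).2 h)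
  rw [coeff_fromSub_of_mem _ _ hg, coeff_eIdem]
  have hterm : ∀ x : G, subgroupBlockCoeff (Subgroup.centralizer (P : Set G)) e (x⁻¹ * g * x) =
      blockCoeff (cjBlock x e) ⟨g, hg⟩ := by
    intro x
    have hx : x⁻¹ * g * x ∈ Subgroup.centralizer (P : Set G) := (Subgroup.mem_normalizer_iff''.1
      (mem_normalizer_centralizer (mem_normalizer_of_normal x)) g).1 hg
    rw [subgroupBlockCoeff, dif_pos hx, ← blockCoeff_mapBlock
      (normEquiv (mem_normalizer_centralizer (mem_normalizer_of_normal (P := P) x))) e ⟨_, hx⟩]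
    congr 1
    ext
    rw [coe_normEquiv]
    group
  have hTne : (Nat.card T : ℂ) ≠ 0 := Nat.cast_ne_zero.2 Nat.card_pos.ne'
  have hcount : ∀ ψ : IrrCharacter (Subgroup.centralizer (P : Set G)),
      ((Finset.univ.filter fun x : G => ψ ∈ cjBlock x e).card : ℂ) =
        if ψ ∈ gClosure (Subgroup.centralizer (P : Set G)) e then (Nat.card T : ℂ) else 0 := by
    intro ψ
    split_ifs with hψ
    · obtain ⟨x0, hx0⟩ := mem_gClosure_iff.1 hψ
      rw [Nat.cast_inj, ← Fintype.card_coe, ← Nat.card_eq_fintype_card]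
      refine Nat.card_congr ?_
      have key : ∀ x : G, ψ ∈ cjBlock x e ↔ x0⁻¹ * x ∈ T := by
        intro x
        rw [hT, ← (cj (M := M) x0).injective.eq_iff, cj_cj, mul_inv_cancel_left,
          ← pbar_mapBlock_normEquiv e (mem_normalizer_of_normal x),
          ← pbar_mapBlock_normEquiv e (mem_normalizer_of_normal x0)]
        constructor
        · intro hx
          exact congrArg _ (eq_of_mem_of_mem (isPBlock_mapBlock _ he) (isPBlock_mapBlock _ he)
            hx hx0)
        · intro hx
          rwa [show cjBlock x e = cjBlock x0 e from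
            pbar_inj (isPBlock_mapBlock _ he) (isPBlock_mapBlock _ he) hx]
      exact
        { toFun := fun x => ⟨x0⁻¹ * x.1, (key x.1).1 (Finset.mem_filter.1 x.2).2⟩
          invFun := fun t => ⟨x0 * t.1, Finset.mem_filter.2 ⟨Finset.mem_univ _,
            (key _).2 (by rw [inv_mul_cancel_left]; exact t.2)⟩⟩
          left_inv := fun x => Subtype.ext (mul_inv_cancel_left _ _)
          right_inv := fun t => Subtype.ext (inv_mul_cancel_left _ _) }
    · rw [Finset.filter_false_of_mem, Finset.card_empty, Nat.cast_zero]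
      exact fun x _ hx => hψ (mem_gClosure_iff.2 ⟨x, hx⟩)
  simp only [hterm, blockCoeff_eq_sum]
  rw [← Finset.mul_sum, Finset.sum_comm, mul_left_comm]
  congr 1
  rw [Finset.mul_sum]
  refine Finset.sum_congr rfl fun ψ _ => ?_
  rw [← Finset.sum_filter, Finset.sum_const, nsmul_eq_mul, hcount ψ]
  split_ifs
  · rw [← mul_assoc, inv_mul_cancel₀ hTne, one_mul]
  · simp

end Cfsg.Agent.Lib.BrauerPairs
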