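import Cfsg.Agent.Lib.BrauerPairs.PIndexBlock
import Cfsg.Agent.Lib.BrauerPairs.SubPairs
import Cfsg.Agent.Lib.BrauerPairs.Nilpotent

/-!
# Nilpotency along normal subgroups of p-power index
-/

set_option autoImplicit false
set_option linter.unusedSectionVars false
set_option linter.style.haveILetI false

namespace Cfsg.Agent.Lib.BrauerPairs

open Cfsg Cfsg.Agent.Lib.Block

universe u

variable {p : ℕ} {M : Ideal AlgInt} [M.IsPrime] {G : Type u} [Group G] [Finite G]

theorem mem_of_regular {x : G} {N : Subgroup G} [N.Normal] {k : ℕ} (hp : p.Prime)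
    (hk : N.index = p ^ k) (hx : IsPRegular p x) : x ∈ N := by
  have h1 : x ^ p ^ k ∈ N := hk ▸ Subgroup.pow_index_mem N x
  have hcop : Nat.Coprime (p ^ k) (orderOf x) := (hp.coprime_iff_not_dvd.2 hx).pow_left k
  obtain ⟨u, v, huv⟩ := Nat.isCoprime_iff_coprime.2 hcop
  have h2 : x ^ orderOf x ∈ N := by rw [pow_orderOf_eq_one]; exact N.one_mem
  rw [← zpow_one x, ← huv, zpow_add, zpow_mul', zpow_mul', zpow_natCast, zpow_natCast]
  exact mul_mem (zpow_mem h1 u) (zpow_mem h2 v)

/-- A regular element centralizing `Q ∩ N` and `Q / (Q ∩ N)` centralizes `Q`. -/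
theorem mem_centralizer_of_inf (hp : p.Prime) {Q N : Subgroup G} [hN : N.Normal]
    (hQ : IsPGroup p Q) {x : G} (hxN : x ∈ N) (hxQ : x ∈ Subgroup.normalizer (Q : Set G))
    (hx : IsPRegular p x) (hcent : x ∈ Subgroup.centralizer ((Q ⊓ N : Subgroup G) : Set G)) :
    x ∈ Subgroup.centralizer (Q : Set G) := by
  rw [Subgroup.mem_centralizer_iff]
  intro q hq
  set r := x * q * x⁻¹ * q⁻¹ with hr
  have hrQ : r ∈ Q := Q.mul_mem ((Subgroup.mem_normalizer_iff.1 hxQ q).1 hq) (Q.inv_mem hq)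
  have hrN : r ∈ N := by
    rw [show r = x * (q * x⁻¹ * q⁻¹) by rw [hr]; group]
    exact N.mul_mem hxN (hN.conj_mem _ (N.inv_mem hxN) q)
  have hcomm : r * x = x * r := Subgroup.mem_centralizer_iff.1 hcent r ⟨hrQ, hrN⟩
  have key : ∀ j : ℕ, x ^ j * q * (x ^ j)⁻¹ = r ^ j * q := by
    intro j
    induction j with
    | zero => simp
    | succ j ih =>
      have h1 : Commute x (r ^ j) := (Commute.pow_right (hcomm.symm : Commute x r) j)
      calc x ^ (j + 1) * q * (x ^ (j + 1))⁻¹ = x * (x ^ j * q * (x ^ j)⁻¹) * x⁻¹ := by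
            rw [pow_succ']; group
        _ = x * r ^ j * q * x⁻¹ := by rw [ih]; group
        _ = r ^ j * (x * q * x⁻¹ * q⁻¹) * q := by rw [h1.eq]; group
        _ = r ^ (j + 1) * q := by rw [pow_succ, hr]
  have h1 := key (orderOf x)
  rw [pow_orderOf_eq_one, one_mul, inv_one, mul_one, right_eq_mul] at h1
  obtain ⟨l, hl⟩ := hQ ⟨r, hrQ⟩
  have hl' : r ^ p ^ l = 1 := congrArg Subtype.val hl
  have h3 : orderOf r = 1 := Nat.eq_one_of_dvd_coprimes ((hp.coprime_iff_not_dvd.2 hx).pow_left l)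
    (orderOf_dvd_of_pow_eq_one hl') (orderOf_dvd_of_pow_eq_one h1)
  rw [orderOf_eq_one_iff, hr, mul_inv_eq_one, mul_inv_eq_iff_eq_mul] at h3
  exact h3.symm

variable (N : Subgroup G) [hN : N.Normal] {c : Set (IrrCharacter N)} {B : Set (IrrCharacter G)}

theorem bar_eq_emb (hcoe : ∀ g : G, blockCoeff B g = subgroupBlockCoeff N c g) :
    bar M B = emb N (bar M c) := by
  refine alg_ext fun g => ?_
  rw [coeff_bar, hcoe, subgroupBlockCoeff]
  split_ifs with hg
  · rw [coeff_emb_of_mem _ _ hg, coeff_bar]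
  · rw [coeff_emb_of_not_mem _ _ hg, redC_zero]

variable {R : Subgroup G}

/-- `C_N(R) = C_G(R) ∩ N`. -/
noncomputable def infCent (hR : R ≤ N) :
    Subgroup.centralizer (R.subgroupOf N : Set N) ≃*
      (Subgroup.centralizer (R : Set G) ⊓ N : Subgroup G) where
  toFun c := ⟨((c : N) : G), Subgroup.mem_centralizer_iff.2 fun u hu =>
    congrArg Subtype.val (Subgroup.mem_centralizer_iff.1 c.2 ⟨u, hR hu⟩
      (Subgroup.mem_subgroupOf.2 hu)), (c : N).2⟩
  invFun c := ⟨⟨(c : G), c.2.2⟩, Subgroup.mem_centralizer_iff.2 fun u hu =>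
    Subtype.ext (Subgroup.mem_centralizer_iff.1 c.2.1 _ (Subgroup.mem_subgroupOf.1 hu))⟩
  left_inv _ := rfl
  right_inv _ := rfl
  map_mul' _ _ := rfl

theorem emb_pbar_infCent (hR : R ≤ N) (b : CBlock (R.subgroupOf N)) :
    emb (Subgroup.centralizer (R : Set G) ⊓ N) (bar M (mapBlock (infCent N hR) b)) =
      emb N (pbar M (R.subgroupOf N) b) := by
  refine alg_ext fun y => ?_
  by_cases hy : y ∈ (Subgroup.centralizer (R : Set G) ⊓ N : Subgroup G)
  · have hc : (⟨y, hy.2⟩ : N) ∈ Subgroup.centralizer (R.subgroupOf N : Set N) :=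
      ((infCent N hR).symm ⟨y, hy⟩).2
    rw [coeff_emb_of_mem _ _ hy, coeff_emb_of_mem _ _ hy.2, pbar, coeff_emb_of_mem _ _ hc,
      ← coeff_bar_mapBlock (infCent N hR) b]
    rfl
  · rw [coeff_emb_of_not_mem _ _ hy]
    by_cases hyN : y ∈ N
    · rw [coeff_emb_of_mem _ _ hyN, pbar, coeff_emb_of_not_mem]
      intro h
      exact hy ((infCent N hR) ⟨⟨y, hyN⟩, h⟩).2
    · rw [coeff_emb_of_not_mem _ _ hyN]

theorem nilpotent_of_index (hM : IsPModular p M) {k : ℕ} (hk : N.index = p ^ k)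
    (hc : IsPBlock M c) (hB : IsPBlock M B)
    (hcoe : ∀ g : G, blockCoeff B g = subgroupBlockCoeff N c g)
    (hnil : IsNilpotentBlock p M c) : IsNilpotentBlock p M B := by
  refine ⟨hB, fun Q f hQf x hxQ hxs hxp => ?_⟩
  obtain ⟨hQ, hf, -, -⟩ := (isBrauerPairOf_iff hM).1 hQf
  have hxN : x ∈ N := mem_of_regular hM.1 hk hxp
  set R := Q ⊓ N with hR
  obtain ⟨g, hg, hgle⟩ := exists_le hM hQ hf R inf_le_left
  have hpg := (pairOf_iff_of_le hM hQ hf hgle).2 hQf
  have hxR : x ∈ Subgroup.normalizer (R : Set G) :=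
    mem_normalizer_inf hxQ (mem_normalizer_normal N x)
  have hxg : x ∈ stab M R g :=
    inf_normalizer_stab_le hM hQ hf hgle ⟨(mem_stab_iff hf).2 ⟨hxQ, hxs⟩, hxR⟩
  have hRN : R ≤ N := inf_le_right
  obtain ⟨hRp, -, -, hog⟩ := (isBrauerPairOf_iff hM).1 hpg
  obtain ⟨b, hb, hbfix, hbg⟩ := exists_fixed_block hM
    (C' := Subgroup.centralizer (R : Set G) ⊓ N) inf_le_left
    (fun u hu => mem_normalizer_inf (Subgroup.le_normalizer hu) (mem_normalizer_normal N u))
    (fun u hu => ⟨k, Subgroup.pow_mem _ hu _, hk ▸ Subgroup.pow_index_mem N u⟩) hg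
    (fun y hy => by
      by_cases hyN : y ∈ N
      · exact coeff_emb_of_not_mem _ _ fun h => hy ⟨h, hyN⟩
      · exact supp_inf_of_pIndex hM N hk _ (fun z hz => coeff_emb_of_not_mem _ _ hz)
          (fun u hu => cj_pbar_of_centralizes R g hu) (isIdempotentElem_pbar hg) hyN)
    (mem_normalizer_inf (mem_normalizer_centralizer hxR) (mem_normalizer_normal N x)) hxp hxg.2
    (fun u hu => ⟨by
      rw [show u⁻¹ * x⁻¹ * u * x = u⁻¹ * (x⁻¹ * u * x) by group]
      exact (Subgroup.centralizer (R : Set G)).mul_mem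
        ((Subgroup.centralizer (R : Set G)).inv_mem hu)
        ((Subgroup.mem_normalizer_iff''.1 (mem_normalizer_centralizer hxR) u).1 hu), by
      refine N.mul_mem ?_ hxN
      simpa using hN.conj_mem _ (N.inv_mem hxN) u⁻¹⟩)
  set b' := mapBlock (infCent N hRN).symm b with hb'
  have hb'b : IsPBlock M b' := isPBlock_mapBlock _ hb
  have he : emb N (pbar M (R.subgroupOf N) b') =
      emb (Subgroup.centralizer (R : Set G) ⊓ N) (bar M b) := by
    rw [← emb_pbar_infCent N hRN b', hb', mapBlock_symm]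
  have hpair : IsBrauerPairOf p M c (R.subgroupOf N) b' := by
    refine (isBrauerPairOf_iff hM).2 ⟨hRp.comap_subtype, hb'b, hc, emb_injective N ?_⟩
    rw [map_mul, ← br_emb, Subgroup.map_subgroupOf_eq_of_le hRN, ← bar_eq_emb N hcoe, he]
    conv_lhs => rw [← hbg, mul_assoc]
    rw [show emb (Subgroup.centralizer (R : Set G)) (bar M g) * br R (bar M B) =
      emb (Subgroup.centralizer (R : Set G)) (bar M g) from hog, hbg]
  have hxR' : (⟨x, hxN⟩ : N) ∈ Subgroup.normalizer (R.subgroupOf N : Set N) :=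
    Subgroup.mem_normalizer_iff.2 fun y => Subgroup.mem_normalizer_iff.1 hxR (y : G)
  have hx' : (⟨x, hxN⟩ : N) ∈ Subgroup.centralizer (R.subgroupOf N : Set N) := by
    refine hnil.2 _ b' hpair _ hxR' ((stabilizesBlock_iff hxR' hb'b).2 ?_) ?_
    · refine emb_injective N ?_
      rw [← cj_emb, he]
      exact hbfix
    · rw [IsPRegular, ← Subgroup.orderOf_coe]
      exact hxp
  exact mem_centralizer_of_inf hM.1 hQ hxN hxQ hxp ((infCent N hRN ⟨_, hx'⟩).2.1)

theorem nilpotent_of_index_converse (hM : IsPModular p M) {k : ℕ} (hk : N.index = p ^ k)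
    (hc : IsPBlock M c) (hcoe : ∀ g : G, blockCoeff B g = subgroupBlockCoeff N c g)
    (hnil : IsNilpotentBlock p M B) : IsNilpotentBlock p M c := by
  classical
  refine ⟨hc, fun R' b hpair x hxR hxs hxp => ?_⟩
  obtain ⟨hR', hb, -, hob⟩ := (isBrauerPairOf_iff hM).1 hpair
  set R := R'.map N.subtype with hR
  set e := emb N (pbar M R' b) with he
  have he0 : e ≠ 0 := fun h0 => pbar_ne_zero hb (emb_injective N (h0.trans (map_zero _).symm))
  have hRp : IsPGroup p R := hR'.map _
  have hxR2 : (x : G) ∈ Subgroup.normalizer (R : Set G) :=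
    R'.le_normalizer_map _ ⟨x, hxR, rfl⟩
  have hfix : cj (x : G) e = e := by
    rw [he, cj_emb, (stabilizesBlock_iff hxR hb).1 hxs]
  obtain ⟨g, hg, hne⟩ : ∃ g : CBlock R, IsPBlock M g ∧ e * pbar M R g ≠ 0 := by
    by_contra hcon
    push Not at hcon
    refine he0 ?_
    rw [← mul_one e, ← sum_pset (M := M) R, Finset.mul_sum]
    refine Finset.sum_eq_zero fun a ha => ?_
    obtain ⟨g, hg, rfl⟩ := mem_pset.1 ha
    exact hcon g hg
  have hsupp : ∀ y, y ∉ N → (pbar M R g).coeff y = 0 := fun y hy =>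
    supp_inf_of_pIndex hM N hk (Subgroup.centralizer (R : Set G))
      (fun z hz => coeff_emb_of_not_mem _ _ hz)
      (fun u hu => cj_pbar_of_centralizes R g hu) (isIdempotentElem_pbar hg) hy
  set z := toSub N (pbar M R g) with hz
  have hze : emb N z = pbar M R g := restr_self hsupp
  have hgood : Good R' z := by
    refine ⟨fun u hu => emb_injective N ?_, fun u hu => emb_injective N ?_,
      emb_injective (M := M) N (by rw [map_mul, hze, (isIdempotentElem_pbar hg).eq])⟩
    · rw [← cj_emb, hze]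
      exact self_le_fixSub hM hRp hg ⟨u, hu, rfl⟩
    · rw [← cj_emb, hze]
      exact cj_pbar_of_centralizes R g (mem_centralizer_push.1 hu)
  have heg : e * pbar M R g = e := by
    have hbrz : br R' z = z := emb_injective N (by rw [← br_emb, hze, ← hR, br_pbar])
    rcases occ_or_zero hM hR' hb hgood with h0 | h1
    · rw [hbrz] at h0
      rw [← hze, he, ← map_mul, h0, map_zero] at hne
      exact absurd rfl hne
    · rw [Occ, hbrz] at h1
      rw [← hze, he, ← map_mul, h1]
  have hpg : IsBrauerPairOf p M B R g := by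
    refine (isBrauerPairOf_iff hM).2 ⟨hRp, hg, hnil.1, ?_⟩
    rcases occ_or_zero hM hRp hg (good_bar hnil.1 R) with h0 | h1
    · refine absurd ?_ he0
      calc e = e * br R (bar M B) := by
            rw [he, bar_eq_emb N hcoe, hR, br_emb, ← map_mul]
            exact congrArg (emb N) hob.symm
        _ = e * pbar M R g * br R (bar M B) := by rw [heg]
        _ = 0 := by rw [mul_assoc, h0, mul_zero]
    · exact h1
  have hxg : cj (x : G) (pbar M R g) = pbar M R g := by
    obtain ⟨g', hg', hg'e⟩ := exists_pbar_conj hg hxR2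
    by_contra hne'
    refine he0 ?_
    have h1 : e * pbar M R g' = e := by
      rw [hg'e]
      conv_rhs => rw [← hfix, ← heg, map_mul, hfix]
    calc e = e * pbar M R g' * pbar M R g := by rw [h1, heg]
      _ = 0 := by
        rw [mul_assoc, pbar_mul_pbar_of_ne hg' hg (fun h => hne' (by rw [← hg'e, h])), mul_zero]
  have hxp' : IsPRegular p (x : G) := by
    rw [IsPRegular, Subgroup.orderOf_coe]
    exact hxp
  exact mem_centralizer_push.2 (hnil.2 R g hpg _ hxR2 ((stabilizesBlock_iff hxR2 hg).2 hxg) hxp')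

end Cfsg.Agent.Lib.BrauerPairs
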