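import Cfsg.Agent.Lib.BrauerPairs.Maximal

/-!
# Brauer pairs of the principal block
-/

set_option autoImplicit false
set_option linter.unusedSectionVars false
set_option linter.style.haveILetI false

namespace Cfsg.Agent.Lib.BrauerPairs

open Cfsg Cfsg.Agent.Lib.Block

universe u

variable {p : ℕ} {M : Ideal AlgInt} [M.IsPrime] {G : Type u} [Group G] [Finite G]

/-- The sum of the coefficients. -/
noncomputable def aug (a : MonoidAlgebra (ResField M) G) : ResField M :=
  ∑ᶠ x : G, a.coeff x

theorem aug_eq_sum [Fintype G] (a : MonoidAlgebra (ResField M) G) : aug a = ∑ x, a.coeff x :=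
  finsum_eq_sum_of_fintype _

theorem aug_cj (x : G) (a : MonoidAlgebra (ResField M) G) : aug (cj x a) = aug a := by
  haveI := Fintype.ofFinite G
  rw [aug_eq_sum, aug_eq_sum, ← (MulAut.conj x).toEquiv.sum_comp]
  simp [coeff_cj, mul_assoc]

theorem aug_emb (H : Subgroup G) (z : MonoidAlgebra (ResField M) H) :
    aug (emb H z) = aug z := by
  classical
  haveI := Fintype.ofFinite G
  rw [aug_eq_sum, aug_eq_sum, ← Finset.sum_subset (Finset.subset_univ (Finset.univ.filter (· ∈ H)))
    fun x _ hx => coeff_emb_of_not_mem H z fun h => hx (Finset.mem_filter.2 ⟨Finset.mem_univ _, h⟩),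
    Finset.sum_subtype (p := (· ∈ H)) _ (fun x => by simp) (fun x => (emb H z).coeff x)]
  exact Finset.sum_congr rfl fun x _ => coeff_emb_of_mem H z x.2

theorem aug_br (hM : IsPModular p M) {P : Subgroup G} (hP : IsPGroup p P)
    {a : MonoidAlgebra (ResField M) G} (ha : ∀ u ∈ P, cj u a = a) : aug (br P a) = aug a := by
  classical
  haveI : Fact p.Prime := ⟨hM.1⟩
  haveI := resField_charP (M := M) hM
  haveI := Fintype.ofFinite G
  rw [aug_eq_sum, aug_eq_sum, sum_conj_eq_sum_centralizer (p := p) hP (fun x => a.coeff x)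
    fun u hu => invUnder_iff_cj.2 (ha u hu), Finset.sum_filter]
  refine Finset.sum_congr rfl fun x _ => ?_
  split_ifs with hx
  · exact coeff_br_of_mem a hx
  · exact coeff_br_of_not_mem a hx

theorem lam_one_char {z : MonoidAlgebra (ResField M) G} (hz : IsClassCoeff z) :
    lam M (⟨_, Char.isIrrCharacter_one⟩ : IrrCharacter G) z = aug z := by
  haveI := Fintype.ofFinite G
  conv_lhs => rw [← toF_liftA z]
  rw [lam_toF _ (isClassCoeff_liftA hz) (intR_liftA z), omega_eq_sum, aug_eq_sum]
  show redC M ((∑ x, (liftA z).coeff x * 1) / 1) = _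
  rw [div_one, redC_sum _ fun x _ => by simpa using intR_liftA (M := M) z x]
  refine Finset.sum_congr rfl fun x _ => ?_
  rw [mul_one, ← coeff_toF, toF_liftA]

theorem isPBlock_principal : IsPBlock M (principalBlock M G) :=
  ⟨⟨_, Char.isIrrCharacter_one⟩, rfl⟩

theorem one_mem_principal :
    (⟨_, Char.isIrrCharacter_one⟩ : IrrCharacter G) ∈ principalBlock M G :=
  mem_blockOf_self (M := M) (⟨_, Char.isIrrCharacter_one⟩ : IrrCharacter G)

open scoped Classical in
theorem aug_bar {B : Set (IrrCharacter G)} (hB : IsPBlock M B) :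
    aug (bar M B) = if B = principalBlock M G then 1 else 0 := by
  rw [← lam_one_char (isClassCoeff_bar B), lam_bar hB]
  exact if_congr ⟨fun h => eq_of_mem_of_mem hB isPBlock_principal h one_mem_principal,
    fun h => h ▸ one_mem_principal⟩ rfl rfl

/-- The principal block of a centraliser. -/
abbrev e0 (M : Ideal AlgInt) (Q : Subgroup G) : CBlock Q :=
  principalBlock M (Subgroup.centralizer (Q : Set G))

open scoped Classical in
theorem aug_pbar {Q : Subgroup G} {f : CBlock Q} (hf : IsPBlock M f) :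
    aug (pbar M Q f) = if f = e0 M Q then 1 else 0 := by
  rw [pbar, aug_emb, aug_bar hf]

theorem eq_e0_of_aug {Q : Subgroup G} {f : CBlock Q} (hf : IsPBlock M f)
    (h : aug (pbar M Q f) = 1) : f = e0 M Q := by
  classical
  by_contra hne
  rw [aug_pbar hf, if_neg hne] at h
  exact zero_ne_one h

theorem aug_pbar_e0 (Q : Subgroup G) : aug (pbar M Q (e0 M Q)) = 1 := by
  classical
  rw [aug_pbar isPBlock_principal, if_pos rfl]

/-- Occurrence of the principal block in a Brauer image is detected by the coefficient sum. -/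
theorem occ_e0_iff (hM : IsPModular p M) {P : Subgroup G} (hP : IsPGroup p P)
    {a : MonoidAlgebra (ResField M) G} (h : Good P a) : Occ P (e0 M P) a ↔ aug a = 1 := by
  rw [occ_iff_lam hM hP isPBlock_principal one_mem_principal h, lam_one_char h.isClassCoeff,
    ← aug_emb, ← br_eq_emb, aug_br hM hP h.fixP]

theorem step_e0 (hM : IsPModular p M) {Q P : Subgroup G} {f : CBlock Q}
    (h : Step p M Q f P (e0 M P)) : f = e0 M Q := by
  obtain ⟨hP, hf, -, hQP, -, hfix, ho⟩ := h
  exact eq_e0_of_aug hf ((occ_e0_iff hM hP (good_pbar hQP hf hfix)).1 ho)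

theorem le_e0 (hM : IsPModular p M) {a b : BrauerPairIdx G} (hb : b.2 = e0 M b.1)
    (h : Relation.ReflTransGen (NormalSubpairRel p M) a b) : a.2 = e0 M a.1 := by
  induction h using Relation.ReflTransGen.head_induction_on with
  | refl => exact hb
  | @head a c hac _ ih =>
    have hs := (rel_iff hM).1 hac
    rw [ih] at hs
    exact step_e0 hM hs

theorem e0_le_e0 (hM : IsPModular p M) {Q P : Subgroup G} (hP : IsPGroup p P) (hQP : Q ≤ P) :
    SubpairLE p M Q (e0 M Q) P (e0 M P) := by
  obtain ⟨f, -, hle⟩ := exists_le hM hP (isPBlock_principal (M := M)) Q hQP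
  obtain rfl : f = e0 M Q := le_e0 hM (a := ⟨Q, f⟩) (b := ⟨P, e0 M P⟩) rfl hle
  exact hle

theorem isBrauerPairOf_e0 (hM : IsPModular p M) {Q : Subgroup G} (hQ : IsPGroup p Q) :
    IsBrauerPairOf p M (principalBlock M G) Q (e0 M Q) := by
  refine (isBrauerPairOf_iff hM).2 ⟨hQ, isPBlock_principal, isPBlock_principal,
    (occ_e0_iff hM hQ (good_bar isPBlock_principal Q)).2 ?_⟩
  classical
  rw [aug_bar isPBlock_principal, if_pos rfl]

theorem isMaximal_sylow (hM : IsPModular p M) (S : Sylow p G) :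
    IsMaximalBrauerPair p M (principalBlock M G) (S : Subgroup G) (e0 M (S : Subgroup G)) := by
  haveI : Fact p.Prime := ⟨hM.1⟩
  have h := isBrauerPairOf_e0 (M := M) hM S.isPGroup'
  refine ⟨h, fun R g hg hle => (S.3 hg.1.1 (subgroup_le hle))⟩

/-- Brauer's third main theorem: the only pairs of the principal block are the principal ones. -/
theorem eq_e0_of_pair (hM : IsPModular p M) {Q : Subgroup G} {f : CBlock Q}
    (h : IsBrauerPairOf p M (principalBlock M G) Q f) : f = e0 M Q := by
  obtain ⟨S⟩ : Nonempty (Sylow p G) := inferInstance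
  obtain ⟨x, hx⟩ := exists_conj_le_maximal hM h (isMaximal_sylow hM S)
  have h1 := le_e0 hM (a := ⟨sj x Q, conjBlock Q x f⟩) (b := ⟨(S : Subgroup G), e0 M _⟩) rfl hx
  dsimp only at h1
  refine eq_e0_of_aug h.1.2 ?_
  rw [← aug_cj x, ← pbar_conjBlock, h1, aug_pbar_e0]

theorem conjBlock_e0 (Q : Subgroup G) (x : G) : conjBlock Q x (e0 M Q) = e0 M (sj x Q) :=
  eq_e0_of_aug (isPBlock_conjBlock Q x isPBlock_principal)
    (by rw [pbar_conjBlock, aug_cj, aug_pbar_e0])

theorem cj_pbar_e0 {Q : Subgroup G} {x : G} (hx : x ∈ Subgroup.normalizer (Q : Set G)) :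
    cj x (pbar M Q (e0 M Q)) = pbar M Q (e0 M Q) := by
  obtain ⟨f', hf', he⟩ := exists_pbar_conj (isPBlock_principal (M := M)) hx
  rw [← he, eq_e0_of_aug hf' (by rw [he, aug_cj, aug_pbar_e0])]

end Cfsg.Agent.Lib.BrauerPairs
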