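import Cfsg.Agent.Lib.BrauerPairs.Principal
import Cfsg.Agent.Lib.BrauerPairs.PIndexNilpotent
import Cfsg.Agent.Lib.Block.Principal
import Cfsg.Agent.Lib.Block.Count
import Cfsg.Agent.Lib.Transfer.Fusion

/-!
# When the principal block is nilpotent
-/

set_option autoImplicit false
set_option linter.unusedSectionVars false
set_option linter.style.haveILetI false

namespace Cfsg.Agent.Lib.BrauerPairs

open Cfsg Cfsg.Agent.Lib.Block
open scoped ComplexConjugate

universe u

variable {p : ℕ} {M : Ideal AlgInt} [M.IsPrime] {G : Type u} [Group G] [Finite G]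

/-- Constant on the regular elements, all members of the principal block. -/
theorem blockRank_principal_of_const
    (h : ∀ χ ∈ principalBlock M G, ∀ x : G, IsPRegular p x → (χ : G → ℂ) x = (χ : G → ℂ) 1)
    (hp : p.Prime) : blockRank p (principalBlock M G) = 1 := by
  set f : G → ℂ := pRegularPart p (oneIrr G : G → ℂ) with hf
  have hspan : Submodule.span ℂ ((fun χ : IrrCharacter G => pRegularPart p (χ : G → ℂ)) ''
      principalBlock M G) = Submodule.span ℂ {f} := by
    refine le_antisymm (Submodule.span_le.2 ?_)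
      (Submodule.span_le.2 (Set.singleton_subset_iff.2
        (Submodule.subset_span ⟨oneIrr G, oneIrr_mem, rfl⟩)))
    rintro _ ⟨χ, hχ, rfl⟩
    refine Submodule.mem_span_singleton.2 ⟨(χ : G → ℂ) 1, funext fun x => ?_⟩
    show (χ : G → ℂ) 1 • f x = pRegularPart p (χ : G → ℂ) x
    rw [hf, pRegularPart_apply, pRegularPart_apply, smul_eq_mul]
    split_ifs with hx
    · rw [mul_zero]
    · rw [oneIrr_apply, mul_one, h χ hχ x hx]
  have hne : f ≠ 0 := fun h0 => by
    have := congrFun h0 1
    rw [hf, pRegularPart_apply, if_neg (show ¬ p ∣ orderOf (1 : G) by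
      rw [orderOf_one, Nat.dvd_one]; exact hp.ne_one), oneIrr_apply, Pi.zero_apply]
      at this
    exact one_ne_zero this
  rw [blockRank, hspan, finrank_span_singleton hne]

theorem const_of_blockRank (hr : blockRank p (principalBlock M G) = 1) (hp : p.Prime) :
    ∀ χ ∈ principalBlock M G, ∀ x : G, IsPRegular p x → (χ : G → ℂ) x = (χ : G → ℂ) 1 := by
  intro χ hχ x hx
  set V := Submodule.span ℂ ((fun χ : IrrCharacter G => pRegularPart p (χ : G → ℂ)) ''
    principalBlock M G)
  have h1 : pRegularPart p (oneIrr G : G → ℂ) ∈ V :=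
    Submodule.subset_span ⟨oneIrr G, oneIrr_mem, rfl⟩
  have h2 : pRegularPart p (χ : G → ℂ) ∈ V := Submodule.subset_span ⟨χ, hχ, rfl⟩
  have hone : IsPRegular p (1 : G) := by
    rw [IsPRegular, orderOf_one, Nat.dvd_one]; exact hp.ne_one
  have hne : (⟨_, h1⟩ : V) ≠ 0 := fun h0 => by
    have := congrFun (congrArg Subtype.val h0) 1
    simp only [pRegularPart_apply, if_neg (show ¬ p ∣ orderOf (1 : G) from hone), oneIrr_apply] at this
    exact one_ne_zero this
  obtain ⟨a, ha⟩ := (finrank_eq_one_iff_of_nonzero' (⟨_, h1⟩ : V) hne).1 hr ⟨_, h2⟩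
  have ha' := congrArg Subtype.val ha
  have e1 := congrFun ha' 1
  have e2 := congrFun ha' x
  simp only [Submodule.coe_smul, Pi.smul_apply, pRegularPart_apply,
    if_neg (show ¬ p ∣ orderOf (1 : G) from hone), if_neg (show ¬ p ∣ orderOf x from hx),
    oneIrr_apply, smul_eq_mul, mul_one] at e1 e2
  rw [← e1, ← e2]

/-- Only the identity `p`-element is in all the kernels of the principal block. -/
theorem eq_one_of_kernels (hM : IsPModular p M) {r : G} (hr : ∃ l : ℕ, r ^ p ^ l = 1)
    (h : ∀ χ ∈ principalBlock M G, (χ : G → ℂ) r = (χ : G → ℂ) 1) : r = 1 := by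
  classical
  by_contra hne
  obtain ⟨l, hl⟩ := hr
  obtain ⟨j, -, hj⟩ := (Nat.dvd_prime_pow hM.1).1 (orderOf_dvd_of_pow_eq_one hl)
  have hdvd : p ∣ orderOf r := by
    rw [hj]
    refine dvd_pow_self p fun h0 => hne ?_
    rw [h0, pow_zero, orderOf_eq_one_iff] at hj
    exact hj
  have hone : ¬ p ∣ orderOf (1 : G) := by
    rw [orderOf_one, Nat.dvd_one]; exact hM.1.ne_one
  have hw := weak_orthogonality hM (B := principalBlock M G) isPBlock_principalBlock hone hdvd
  have hre := congrArg Complex.re hw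
  rw [Complex.re_sum, Complex.zero_re] at hre
  have hnn : ∀ χ ∈ (Finset.univ : Finset (IrrCharacter G)),
      0 ≤ (if χ ∈ principalBlock M G then (χ : G → ℂ) 1 * conj ((χ : G → ℂ) r) else 0).re := by
    intro χ _
    split_ifs with hχ
    · rw [h χ hχ, Complex.mul_conj]
      exact Complex.normSq_nonneg _
    · simp
  have h0 := (Finset.sum_eq_zero_iff_of_nonneg hnn).1 hre (oneIrr G) (Finset.mem_univ _)
  rw [if_pos oneIrr_mem, h _ oneIrr_mem, oneIrr_apply, map_one, mul_one, Complex.one_re] at h0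
  exact one_ne_zero h0

theorem isNilpotentBlock_principal_of_rank (hM : IsPModular p M)
    (hr : blockRank p (principalBlock M G) = 1) :
    IsNilpotentBlock p M (principalBlock M G) := by
  refine ⟨isPBlock_principal, fun Q e hQe x hxQ _ hxp => ?_⟩
  rw [Subgroup.mem_centralizer_iff]
  intro q hq
  set r := x * q * x⁻¹ * q⁻¹ with hrdef
  have hrQ : r ∈ Q := Q.mul_mem ((Subgroup.mem_normalizer_iff.1 hxQ q).1 hq) (Q.inv_mem hq)
  obtain ⟨l, hl⟩ := hQe.1.1 ⟨r, hrQ⟩
  have hr1 : r = 1 := by
    refine eq_one_of_kernels hM ⟨l, congrArg Subtype.val hl⟩ fun χ hχ => ?_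
    have hc := Char.isCharacter_of_isIrr χ.2
    have hxk : x ∈ Char.charKer (χ : G → ℂ) :=
      (Char.mem_charKer hc).2 (const_of_blockRank hr hM.1 χ hχ x hxp)
    haveI := Char.charKer_normal hc
    refine (Char.mem_charKer hc).1 ?_
    rw [hrdef, show x * q * x⁻¹ * q⁻¹ = x * (q * x⁻¹ * q⁻¹) by group]
    exact mul_mem hxk ((inferInstance : (Char.charKer (χ : G → ℂ)).Normal).conj_mem _
      (inv_mem hxk) q)
  rw [hrdef, mul_inv_eq_one, mul_inv_eq_iff_eq_mul] at hr1
  exact hr1.symm

theorem blockRank_principal_of_nilpotent (hM : IsPModular p M)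
    (hnil : IsNilpotentBlock p M (principalBlock M G)) :
    blockRank p (principalBlock M G) = 1 := by
  classical
  haveI : Fact p.Prime := ⟨hM.1⟩
  haveI := Fintype.ofFinite G
  have hnpc : HasNormalPComplement p G := Transfer.frobenius_criterion fun Q hQ g hg hgo =>
    hnil.2 Q (e0 M Q) (isBrauerPairOf_e0 hM hQ) g hg
      ((stabilizesBlock_iff hg isPBlock_principal).2 (cj_pbar_e0 hg))
      (fun h => hM.1.ne_one (Nat.eq_one_of_dvd_coprimes hgo h dvd_rfl))
  obtain ⟨P, K, hKn, hKP⟩ := hnpc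
  haveI := hKn
  haveI := Fintype.ofFinite K
  obtain ⟨v, hv⟩ := IsPGroup.iff_card.1 P.isPGroup'
  have hKi : K.index = p ^ v := by rw [hKP.symm.index_eq_card, hv]
  have hKc : ¬ p ∣ Nat.card K := by
    intro h
    have h1 := K.card_mul_index
    rw [hKi] at h1
    have h2 : p ^ (v + 1) ∣ Nat.card G := h1 ▸ pow_succ' p v ▸ Nat.mul_dvd_mul_right h _
    have h3 := P.card_eq_multiplicity
    rw [hv] at h3
    have h4 : v = (Nat.card G).factorization p := Nat.pow_right_injective hM.1.two_le h3
    have := (hM.1.pow_dvd_iff_le_factorization Nat.card_pos.ne').1 h2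
    omega
  refine blockRank_principal_of_const (fun χ hχ x hx => ?_) hM.1
  have hreg : ∀ y : G, y ∈ K ↔ ¬ p ∣ orderOf y := fun y =>
    ⟨fun hy h => hKc (h.trans
      ((Subgroup.orderOf_coe (⟨y, hy⟩ : K)).symm ▸ orderOf_dvd_natCard (⟨y, hy⟩ : K))),
      fun hy => mem_of_regular hM.1 hKi hy⟩
  have hne := redC_omega_regSum_of_mem hM hχ
  have hθ : classInner (fun n : K => (χ : G → ℂ) n) (oneIrr K : K → ℂ) ≠ 0 := by
    intro h0
    refine hne ?_
    rw [classInner, mul_eq_zero, or_iff_right (inv_ne_zero (Char.card_ne_zero_complex K))] at h0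
    simp only [oneIrr_apply, map_one, mul_one] at h0
    rw [omega_eq_sum, ← Finset.sum_subset (Finset.subset_univ (Finset.univ.filter (· ∈ K)))
      (fun y _ hy => by
        rw [coeff_regSum, if_pos, zero_mul]
        by_contra hc
        exact hy (Finset.mem_filter.2 ⟨Finset.mem_univ _, (hreg y).2 hc⟩)),
      Finset.sum_subtype (Finset.univ.filter (· ∈ K)) (p := fun y => y ∈ K) (fun y => by simp)]
    rw [Finset.sum_congr rfl (g := fun n : K => (χ : G → ℂ) n) fun n _ => by
      rw [coeff_regSum, if_neg ((hreg n).1 n.2), one_mul], h0, zero_div, redC_zero]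
  have hcl := Char.clifford K χ.2 (oneIrr K).2 hθ
  have horb : ∀ ψ ∈ Char.orbit K (oneIrr K : K → ℂ), ∀ n : K, ψ n = 1 := by
    intro ψ hψ n
    obtain ⟨g, rfl⟩ := (Char.mem_orbit K).1 hψ
    rw [Char.conjChar_apply, oneIrr_apply]
  have hconst : ∀ n : K, (χ : G → ℂ) n = classInner (fun n : K => (χ : G → ℂ) n)
      (oneIrr K : K → ℂ) * (Char.orbit K (oneIrr K : K → ℂ)).card := by
    intro n
    have h1 := congrFun hcl n
    simp only [Pi.smul_apply, Finset.sum_apply, smul_eq_mul] at h1
    rw [h1, Finset.sum_congr rfl fun ψ hψ => horb ψ hψ n, Finset.sum_const, nsmul_eq_mul, mul_one]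
  have e1 := hconst ⟨x, (hreg x).2 hx⟩
  have e2 := hconst 1
  exact e1.trans e2.symm

end Cfsg.Agent.Lib.BrauerPairs
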